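import Mathlib
import Cfsg.Agent.H23.Fpf2
import Cfsg.Agent.BG.T1_5
import Cfsg.Agent.BG.Base10
import Cfsg.Agent.Core.Pprod

/-!
# Coprime action of `Z_q × Z_q` with abelian centralisers: local lemmas
-/

set_option autoImplicit false
set_option linter.unusedSectionVars false

namespace Cfsg.Agent.Mart

open Cfsg Cfsg.Agent.BG Cfsg.Agent.BG.Amb Cfsg.Agent.BG.QuoApi Subgroup

universe u

variable {X : Type u} [Group X] [Finite X] {q : ℕ} {A G : Subgroup X}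

/-- A line of `A`. -/
def Ln (q : ℕ) (A L : Subgroup X) : Prop := L ≤ A ∧ Nat.card L = q

/-- An `A`-invariant subgroup of `G`. -/
def Iv (A G K : Subgroup X) : Prop := K ≤ G ∧ A ≤ 𝐍(K)

/-- The standing hypothesis. -/
structure Hyp (q : ℕ) (A G : Subgroup X) : Prop where
  prime : q.Prime
  elem : IsElementaryAbelian q A
  card : Nat.card A = q ^ 2
  norm : A ≤ 𝐍(G)
  fpf : G ⊓ 𝐂(A) = ⊥
  ab : ∀ L, Ln q A L → IsMulCommutative (G ⊓ 𝐂(L) : Subgroup X)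

section Iv

variable {K H L : Subgroup X}

theorem Iv.inf (h : Iv A G K) (h' : A ≤ 𝐍(H)) : Iv A G (K ⊓ H) :=
  ⟨inf_le_left.trans h.1, le_norm_inf h.2 h'⟩

theorem Iv.inf_cent (h : Iv A G K) (h' : A ≤ 𝐍(H)) : Iv A G (K ⊓ 𝐂(H)) :=
  h.inf (le_norm_cent h')

theorem Iv.inf_norm (h : Iv A G K) (h' : A ≤ 𝐍(H)) : Iv A G (K ⊓ 𝐍(H)) :=
  h.inf (le_norm_norm h')

theorem Iv.sup (h : Iv A G K) (h' : Iv A G H) : Iv A G (K ⊔ H) :=
  ⟨sup_le h.1 h'.1, le_norm_sup h.2 h'.2⟩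

theorem Iv.comm (h : Iv A G K) (h' : Iv A G H) : Iv A G ⁅K, H⁆ :=
  ⟨comm_le_of_le h.1 h'.1, le_norm_comm h.2 h'.2⟩

theorem Iv.pc (h : Iv A G K) (π : Set ℕ) : Iv A G (piCoreOf π K) :=
  ⟨(piCoreOf_le π K).trans h.1, le_norm_piCoreOf_of π h.2⟩

theorem Iv.of_le (h : Iv A G K) (hle : H ≤ K) (h' : A ≤ 𝐍(H)) : Iv A G H := ⟨hle.trans h.1, h'⟩

theorem iv_bot : Iv A G ⊥ := ⟨bot_le, le_norm_bot⟩

end Iv

theorem le_of_sup_der {W C : Subgroup X} (hW : Group.IsNilpotent W) (hC : C ≤ W)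
    (h : W ≤ C ⊔ ⁅W, W⁆) : W ≤ C := by
  induction C using WellFoundedGT.induction with
  | ind C ih =>
  by_contra hne
  have h1 := lt_inf_normalizer_of_nilpotent hW (lt_of_le_not_ge hC hne)
  have h2 := ih _ h1 inf_le_left (h.trans (sup_le_sup_right h1.le _))
  exact hne (Core.eq_of_sup_commutator_of_solvable (solvable_of_nilpotent hW) hC
    (h2.trans inf_le_right) h).ge

theorem inf_cent_le_der {Y R : Subgroup X} (hY : Group.IsSolvable Y) (hR : R ≤ 𝐍(Y))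
    (hcop : (Nat.card Y).Coprime (Nat.card R)) (h : ⁅Y, R⁆ = Y) : Y ⊓ 𝐂(R) ≤ ⁅Y, Y⁆ := by
  have hYN := le_norm_der Y
  have hRN : R ≤ 𝐍(⁅Y, Y⁆) := le_norm_comm hR hR
  rw [← quo_eq_bot_iff (inf_le_left.trans hYN), coprime_quo_cent hR hRN
    (Core.coprime_of_le_left hcop (der_le Y)) (solvable_mono hY (der_le Y))]
  have := coprime_abelian_comm_inf_cent (K := quo ⁅Y, Y⁆ Y) (A := quo ⁅Y, Y⁆ R)
    ((isMulCommutative_quo_iff hYN).2 le_rfl) (quo_le_normalizer hR) (coprime_quo hcop _)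
  rwa [← quo_commutator hYN hRN, h] at this

namespace Hyp

variable (h : Hyp q A G) {K L M T W Y : Subgroup X}
include h

theorem iv_top : Iv A G G := ⟨le_rfl, h.norm⟩

theorem comm : IsMulCommutative A := h.elem.1

theorem solv : Group.IsSolvable A := solvable_of_comm h.comm

theorem cop : (Nat.card G).Coprime (Nat.card A) :=
  H23.HH.coprime_of_fpf h.prime (Core.IsElementaryAbelian.isPGroup h.elem) h.norm h.fpf

theorem cop' (hK : K ≤ G) : (Nat.card K).Coprime (Nat.card A) :=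
  Core.coprime_of_le_left h.cop hK

theorem copL (hK : K ≤ G) (hL : Ln q A L) : (Nat.card K).Coprime (Nat.card L) :=
  Core.coprime_of_le_right (h.cop' hK) hL.1

theorem not_cyclic : ¬ IsCyclic A := fun h1 => by
  have h2 := Sec3Rep.card_le_of_cyclic_of_pow h.prime h1 h.elem.2
  rw [h.card] at h2
  have := h.prime.two_le
  nlinarith

theorem ln_zpowers {a : X} (ha : a ∈ A) (h1 : a ≠ 1) : Ln q A (zpowers a) := by
  have := Fact.mk h.prime
  exact ⟨zpowers_le.2 ha, by rw [Nat.card_zpowers, orderOf_eq_prime (h.elem.2 a ha) h1]⟩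

theorem ln_norm (hL : Ln q A L) : A ≤ 𝐍(L) :=
  le_norm_of_le_cent (le_cent_of_comm h.comm le_rfl hL.1)

theorem ln_lt (hL : Ln q A L) : ¬ A ≤ L := fun h1 => by
  have h2 := Subgroup.card_le_of_le h1
  rw [h.card, hL.2] at h2
  have := h.prime.two_le
  nlinarith

theorem sup_eq (hL : Ln q A L) (hM : Ln q A M) (hne : L ≠ M) : L ⊔ M = A := by
  refine (H23.HH.len2_of_card h.prime h.prime (h.card.trans (sq q))).eq_of_lt (B := L) ?_ ?_
    (sup_le hL.1 hM.1)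
  · rintro rfl
    exact h.prime.one_lt.ne (by rw [← hL.2, card_bot])
  · refine lt_of_le_not_ge le_sup_left fun h1 => hne ?_
    exact (eq_of_le_of_card_ge (le_sup_right.trans h1) (by rw [hL.2, hM.2])).symm

theorem third (hL : Ln q A L) (hM : Ln q A M) : ∃ N, Ln q A N ∧ N ≠ L ∧ N ≠ M := by
  obtain ⟨x, hx, h1, h2⟩ : ∃ x ∈ A, x ∉ L ∧ x ∉ M := by
    obtain ⟨a, ha, haL⟩ := SetLike.not_le_iff_exists.1 (h.ln_lt hL)
    obtain ⟨b, hb, hbM⟩ := SetLike.not_le_iff_exists.1 (h.ln_lt hM)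
    by_cases h1 : a ∈ M
    · by_cases h2 : b ∈ L
      · exact ⟨a * b, A.mul_mem ha hb, fun h3 => haL ((L.mul_mem_cancel_right h2).1 h3),
          fun h3 => hbM ((M.mul_mem_cancel_left h1).1 h3)⟩
      · exact ⟨b, hb, h2, hbM⟩
    · exact ⟨a, ha, haL, h1⟩
  refine ⟨zpowers x, h.ln_zpowers hx ?_, ?_, ?_⟩
  · rintro rfl
    exact h1 L.one_mem
  · rintro rfl
    exact h1 (mem_zpowers x)
  · rintro rfl
    exact h2 (mem_zpowers x)

theorem gen (hK : Iv A G K) (hY : ∀ L, Ln q A L → K ⊓ 𝐂(L) ≤ Y) : K ≤ Y :=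
  Core.le_of_centralizers h.comm h.not_cyclic hK.2 (h.cop' hK.1).symm fun a ha h1 => by
    have := hY _ (h.ln_zpowers ha h1)
    rwa [cent_zpowers] at this

theorem exists_ln (hK : Iv A G K) (hne : K ≠ ⊥) : ∃ L, Ln q A L ∧ K ⊓ 𝐂(L) ≠ ⊥ := by
  by_contra hc
  push Not at hc
  exact hne (le_bot_iff.1 (h.gen hK fun L hL => (hc L hL).le))

theorem disj (hL : Ln q A L) (hM : Ln q A M) (hne : L ≠ M) (hT : T ≤ G) (h1 : T ≤ 𝐂(L))
    (h2 : T ≤ 𝐂(M)) : T = ⊥ := by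
  rw [eq_bot_iff, ← h.fpf, ← h.sup_eq hL hM hne]
  exact le_inf hT (le_cent_sup h1 h2)

theorem cent (hL : Ln q A L) (hT : T ≤ G) (h1 : T ≤ 𝐂(L)) (hY : Y ≤ G) (h2 : Y ≤ 𝐂(L)) :
    T ≤ 𝐂(Y) :=
  le_cent_of_comm (h.ab L hL) (le_inf hT h1) (le_inf hY h2)

theorem ivL (hK : Iv A G K) (hL : Ln q A L) : Iv A G (K ⊓ 𝐂(L)) := hK.inf_cent (h.ln_norm hL)

/-- Thompson's theorem modulo `N`. -/
theorem tq {N : Subgroup X} (hL : Ln q A L) (hM : Ln q A M) (hne : L ≠ M) (hW : Iv A G W)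
    (hT : Iv A G T) (hN : Iv A G N) (hNs : Group.IsSolvable N) (hTL : T ≤ 𝐂(L))
    (hTW : T ≤ 𝐍(W)) (hWN : W ≤ 𝐍(N)) (hTN : T ≤ 𝐍(N))
    (hc : (Nat.card W).Coprime (Nat.card T)) (hWM : W ⊓ 𝐂(M) ≤ N) : ⁅W, T⁆ ≤ N := by
  have hMN : M ≤ 𝐍(N) := hM.1.trans hN.2
  have hWT := hW.sup hT
  have hn : W ⊔ T ≤ 𝐍(N) := sup_le hWN hTN
  have hMs : Group.IsSolvable M := solvable_mono h.solv hM.1
  refine nil_quo_comm_le hn ?_ le_sup_left le_sup_right hc
  refine Transfer.nilpotent_of_prime_fpf (R := quo N M) (quo_le_normalizer (hM.1.trans hWT.2)) ?_ ?_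
  · rw [card_quo_of_disjoint hMN (disjoint_iff.1 (Core.disjoint_of_coprime
      (h.copL hN.1 hM).symm)), hM.2]
    exact h.prime
  · rw [← coprime_quo_cent (hM.1.trans hWT.2) hMN (h.copL hN.1 hM) hNs,
      coprime_sup_inf_cent (hM.1.trans hW.2) (hM.1.trans hT.2) hTW
        (h.copL (inf_le_left.trans hW.1) hM) (Or.inl hMs),
      h.disj hL hM hne (T := T ⊓ 𝐂(M)) (inf_le_left.trans hT.1) (inf_le_left.trans hTL)
        inf_le_right, sup_bot_eq]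
    exact quo_eq_bot_of_le hWM

theorem l1 (hL : Ln q A L) (hM : Ln q A M) (hne : L ≠ M) (hW : Iv A G W)
    (hT : Iv A G T) (hTL : T ≤ 𝐂(L)) (hTW : T ≤ 𝐍(W))
    (hc : (Nat.card W).Coprime (Nat.card T)) (hWM : W ⊓ 𝐂(M) = ⊥) : T ≤ 𝐂(W) :=
  le_cent_iff_comm_eq_bot'.2 (le_bot_iff.1 (h.tq hL hM hne hW hT iv_bot inferInstance hTL hTW
    le_norm_bot le_norm_bot hc hWM.le))

theorem l2 (hL : Ln q A L) (hM : Ln q A M) (hne : L ≠ M) (hW : Iv A G W)
    (hWn : Group.IsNilpotent W) (hT : Iv A G T) (hY : Iv A G Y) (hTL : T ≤ 𝐂(L))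
    (hYM : Y ≤ 𝐂(M)) (hTW : T ≤ 𝐍(W)) (hYW : Y ≤ 𝐍(⁅W, T⁆))
    (hc : (Nat.card W).Coprime (Nat.card T)) (hc' : (Nat.card W).Coprime (Nat.card Y)) :
    Y ≤ 𝐂(⁅W, T⁆) := by
  have hUW : ⁅W, T⁆ ≤ W := comm_le_left hTW
  have hU := hW.comm hT
  have e := coprime_comm_comm hTW hc (Or.inr (solvable_of_nilpotent hWn))
  have hTU : T ≤ 𝐍(⁅W, T⁆) := le_norm_comm hTW le_normalizer
  replace hc := Core.coprime_of_le_left hc hUW
  replace hc' := Core.coprime_of_le_left hc' hUW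
  replace hWn := nilpotent_mono hWn hUW
  generalize ⁅W, T⁆ = U at *
  have hs := solvable_of_nilpotent hWn
  have h1 : U ⊓ 𝐂(L) ≤ ⁅U, U⁆ := le_trans (le_inf inf_le_left
    (h.cent hL (inf_le_left.trans hU.1) inf_le_right hT.1 hTL)) (inf_cent_le_der hs hTU hc e)
  have h2 := h.tq hM hL hne.symm hU hY (hU.comm hU) (solvable_mono hs (der_le U)) hYM hYW
    (le_norm_der U) (le_norm_comm hYW hYW) hc' h1
  refine le_cent_symm ((le_of_sup_der hWn (inf_le_left (b := 𝐂(Y))) ?_).trans inf_le_right)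
  refine (coprime_comm_sup_cent hYW hc' (Or.inr hs)).ge.trans ?_
  exact sup_le (h2.trans le_sup_right) le_sup_left

theorem ward (hK : Iv A G K) (hs : Group.IsSolvable K) :
    Group.IsNilpotent (H23.HH.nres K) := by
  rw [← H23.HH.nres_eq_bot_iff]
  have hn : K ⊔ A ≤ 𝐍(K) := sup_le le_normalizer hK.2
  have := normal_subgroupOf_of_le_norm hn
  have h1 := H23.HH.ward (G := K.subgroupOf (K ⊔ A)) (A := A.subgroupOf (K ⊔ A))
    (Core.solvable_of_mulEquiv (subgroupOfEquivOfLe le_sup_left).symm hs) h.prime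
    ⟨by have := h.comm; infer_instance, fun a ha => Subtype.ext (h.elem.2 a ha)⟩
    (by rw [Nat.card_congr (subgroupOfEquivOfLe le_sup_right).toEquiv, h.card])
    (by
      rw [H23.HH.inf_cent_subgroupOf le_sup_right,
        le_bot_iff.1 (h.fpf ▸ inf_le_inf_right _ hK.1 : K ⊓ 𝐂(A) ≤ ⊥), bot_subgroupOf])
  have h2 := H23.HH.map_nres_iter (K.subgroupOf (K ⊔ A)) (K ⊔ A).subtype 2
  rw [h1, map_subtype_subgroupOf le_sup_left, Subgroup.map_bot] at h2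
  exact h2.symm

omit h in
theorem nil_quo_nres (K : Subgroup X) : Group.IsNilpotent (quo (H23.HH.nres K) K) := by
  have hn : K ≤ 𝐍(H23.HH.nres K) := H23.HH.le_norm_nres le_normalizer
  rw [← H23.HH.nres_eq_bot_iff, ← quoHom_range hn, MonoidHom.range_eq_map, ← H23.HH.map_nres,
    map_quoHom, H23.HH.map_nres, ← MonoidHom.range_eq_map, range_subtype, quo_self]

theorem wd {p : ℕ} [Fact p.Prime] {P : Subgroup X} (hK : Iv A G K) (hs : Group.IsSolvable K)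
    (hP : IsSylowOf p P K) : piCoreOf {p}ᶜ K ⊔ (K ⊓ 𝐍(P)) = K := by
  have hn : K ≤ 𝐍(H23.HH.nres K) := H23.HH.le_norm_nres le_normalizer
  have h1 := nil_quo_norm_sup hn (nil_quo_nres K) hP le_normalizer hn
  have hD := h.ward hK hs
  have hle := H23.HH.nres_le K
  generalize H23.HH.nres K = D at *
  have h2 : D ≤ piCoreOf {p}ᶜ K ⊔ P := by
    refine (B10.pc_sup_pc_of_nilpotent {p} hD).ge.trans (sup_le ?_ ?_)
    · exact ((piCoreOf_normal_le hle hn).trans (piCoreOf_le_hall hP)).trans le_sup_right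
    · exact (piCoreOf_normal_le hle hn).trans le_sup_left
  refine frattini_sylow_of_sup (hall_right_of_sup (piCoreOf_pi _ K) (hall_pi hP)
    (hP.1.trans (le_norm_piCoreOf _ K))) (piCoreOf_le _ K) hP.1 ?_
  have h3 := le_norm_sup (le_norm_piCoreOf {p}ᶜ K) h1
  rwa [show piCoreOf {p}ᶜ K ⊔ (D ⊔ P) = piCoreOf {p}ᶜ K ⊔ P from
    le_antisymm (sup_le le_sup_left (sup_le h2 le_sup_right))
      (sup_le_sup_left le_sup_right _)] at h3

theorem le_pc {p : ℕ} [Fact p.Prime] {S : Subgroup X} (hK : Iv A G K) (hs : Group.IsSolvable K)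
    (hS : S ≤ K) (hp : IsPGroup p S) (hC : S ≤ 𝐂(piCoreOf {p}ᶜ K)) : S ≤ piCoreOf {p} K := by
  obtain ⟨P, hP, hSP⟩ := exists_sylow_ge hp hS
  refine (le_inf hSP hC).trans (le_piCoreOf_of_isPGroup (inf_le_left.trans hP.1) ?_
    (isPGroup_mono (sylow_isPGroup hP) inf_le_left))
  refine (h.wd hK hs hP).ge.trans (sup_le (le_norm_of_le_cent (le_cent_symm inf_le_right)) ?_)
  exact le_norm_inf_cent inf_le_right (inf_le_left.trans (le_norm_piCoreOf _ K))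

end Hyp

end Cfsg.Agent.Mart
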