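import Mathlib
import Cfsg.Agent.Mart.Basic

/-!
# Maximal invariant `{p, r}`-subgroups of a minimal counterexample
-/

set_option autoImplicit false
set_option linter.unusedSectionVars false

namespace Cfsg.Agent.Mart

open Cfsg Cfsg.Agent.BG Cfsg.Agent.BG.Amb Subgroup
open scoped Pointwise

universe u

variable {X : Type u} [Group X] [Finite X] {q : ℕ} {A G : Subgroup X}

/-- A minimal counterexample. -/
structure Min (q : ℕ) (A G : Subgroup X) : Prop extends Hyp q A G where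
  simple : ∀ N, Iv A G N → G ≤ 𝐍(N) → N = ⊥ ∨ N = G
  proper : ∀ K, Iv A G K → K ≠ G → Group.IsSolvable K
  nsolv : ¬ Group.IsSolvable G

/-- A maximal invariant `π`-subgroup. -/
def Mx (π : Set ℕ) (A G M : Subgroup X) : Prop :=
  Maximal (fun K => Iv A G K ∧ IsPiSubgroup π K) M

variable {π : Set ℕ} {p r : ℕ} {K H M P R S T Y : Subgroup X}

theorem exists_mx (hS : Iv A G S) (hπ : IsPiSubgroup π S) : ∃ M, Mx π A G M ∧ S ≤ M := by
  obtain ⟨M, h1, h2⟩ := Finite.exists_le_maximal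
    (p := fun K => Iv A G K ∧ IsPiSubgroup π K) (a := S) ⟨hS, hπ⟩
  exact ⟨M, h2, h1⟩

theorem cop_of_ne [hp : Fact p.Prime] [hr : Fact r.Prime] (hne : p ≠ r) (hS : IsPGroup p S)
    (hT : IsPGroup r T) : (Nat.card S).Coprime (Nat.card T) :=
  IsPGroup.coprime_card_of_ne p r hne S T hS hT

theorem cop_of_ne' [hp : Fact p.Prime] [hr : Fact r.Prime] (hne : p ≠ r) (hS : IsPGroup p S) :
    (Nat.card S).Coprime r := by
  obtain ⟨k, hk⟩ := hS.exists_card_eq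
  rw [hk]
  exact ((Nat.coprime_primes hp.out hr.out).2 hne).pow_left k

theorem inf_of_ne [hp : Fact p.Prime] [hr : Fact r.Prime] (hne : p ≠ r) (hS : IsPGroup p S)
    (hT : IsPGroup r T) : S ⊓ T = ⊥ :=
  disjoint_iff.1 (Core.disjoint_of_coprime (cop_of_ne hne hS hT))

namespace Hyp

variable (h : Hyp q A G)
include h

theorem exists_hall (π : Set ℕ) (hY : Iv A G Y) (hs : Group.IsSolvable Y) :
    ∃ K, IsPiHallOf π K Y ∧ Iv A G K ∧
      ∀ S, S ≤ Y → A ≤ 𝐍(S) → IsPiSubgroup π S → S ≤ K := by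
  obtain ⟨K, hK, hA⟩ := coprime_hall_exists π hY.2 (h.cop' hY.1) hs
  refine ⟨K, hK, hY.of_le hK.1 hA, fun S h1 h2 h3 => ?_⟩
  obtain ⟨H, hH, hAH, hSH⟩ := coprime_hall_subset hY.2 (h.cop' hY.1) hs h.solv h1 h3 h2
  obtain ⟨c, hc, e⟩ := coprime_hall_trans hY.2 (h.cop' hY.1) hs hK hA hH hAH
  have : c = 1 := mem_bot.1 (h.fpf ▸ (⟨hY.1 hc.1, hc.2⟩ : c ∈ G ⊓ 𝐂(A)))
  rw [this, map_one, one_smul] at e
  exact e ▸ hSH

theorem le_syl [Fact p.Prime] (hP : IsSylowOf p P G) (hA : A ≤ 𝐍(P)) (hS : Iv A G S)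
    (hp : IsPGroup p S) : S ≤ P := by
  obtain ⟨H, hH, hAH, hSH⟩ := coprime_sylow_subset h.norm h.cop (Or.inl h.solv) hS.1 hp hS.2
  obtain ⟨c, hc, e⟩ := coprime_sylow_trans h.norm h.cop (Or.inl h.solv) hP hA hH hAH
  have : c = 1 := mem_bot.1 (h.fpf ▸ hc)
  rw [this, map_one, one_smul] at e
  exact e ▸ hSH

theorem le_pc' [hp : Fact p.Prime] (hne : p ≠ r) (hK : Iv A G K) (hs : Group.IsSolvable K)
    (hπ : IsPiSubgroup {p, r} K) (hS : S ≤ K) (hSp : IsPGroup p S)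
    (hC : S ≤ 𝐂(piCoreOf {r} K)) : S ≤ piCoreOf {p} K := by
  refine h.le_pc hK hs hS hSp ?_
  rwa [piCoreOf_congr (ρ := {r})]
  intro s hs hd
  rcases hπ s hs hd with rfl | rfl
  · simp [hne]
  · simp [hne.symm]

end Hyp

namespace Min

variable (h : Min q A G)
include h

theorem solv_norm (hT : Iv A G T) (hne : T ≠ ⊥) (hs : Group.IsSolvable T) :
    Group.IsSolvable (G ⊓ 𝐍(T) : Subgroup X) := by
  refine h.proper _ (h.iv_top.inf_norm hT.2) fun e => ?_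
  rcases h.simple T hT (inf_eq_left.1 e) with h1 | h1
  · exact hne h1
  · exact h.nsolv (h1 ▸ hs)

theorem solv_cent (hT : Iv A G T) (hne : T ≠ ⊥) (hs : Group.IsSolvable T) :
    Group.IsSolvable (G ⊓ 𝐂(T) : Subgroup X) :=
  solvable_mono (h.solv_norm hT hne hs) (inf_le_inf_left _ (cent_le_norm T))

theorem le_mx (hM : Mx π A G M) (hT : Iv A G T) (hne : T ≠ ⊥) (hs : Group.IsSolvable T)
    (hMT : M ≤ 𝐍(T)) (hS : Iv A G S) (hπ : IsPiSubgroup π S) (hST : S ≤ 𝐍(T)) : S ≤ M := by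
  obtain ⟨K, h1, h2, h3⟩ := h.exists_hall π (h.iv_top.inf_norm hT.2) (h.solv_norm hT hne hs)
  exact (h3 S (le_inf hS.1 hST) hS.2 hπ).trans (hM.2 ⟨h2, hall_pi h1⟩
    (h3 M (le_inf hM.1.1.1 hMT) hM.1.1.2 hM.1.2))

variable [hp : Fact p.Prime] [hr : Fact r.Prime] (hne : p ≠ r) (hM : Mx {p, r} A G M)
  (hMs : Group.IsSolvable M)
include hne hM hMs

theorem cent_le_mx (hO : piCoreOf {p} M ≠ ⊥) (hT : Iv A G T) (hT1 : T ≠ ⊥)
    (hTW : T ≤ piCoreOf {r} M) (hS : Iv A G S) (hπ : IsPiSubgroup {p, r} S) (hST : S ≤ 𝐂(T)) :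
    S ≤ M := by
  have pp : ∀ {B : Subgroup X}, IsPGroup p B → IsPiSubgroup {p, r} B := fun hB =>
    pi_of_isPGroup hB (by simp)
  have pr : ∀ {B : Subgroup X}, IsPGroup r B → IsPiSubgroup {p, r} B := fun hB =>
    pi_of_isPGroup hB (by simp)
  have hMi := hM.1.1
  have hOp := piCoreOf_isPGroup (p := p) M
  have hWr := piCoreOf_isPGroup (p := r) M
  have hOi := hMi.pc {p}
  have hWi := hMi.pc {r}
  have hMO := le_norm_piCoreOf {p} M
  have hMW := le_norm_piCoreOf {r} M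
  have hOW : piCoreOf {p} M ≤ 𝐂(piCoreOf {r} M) :=
    piCoreOf_le_cent (by rintro _ rfl rfl; exact hne rfl) M
  have hb := fun B => h.le_pc' (S := B) hne hMi hMs hM.1.2
  generalize piCoreOf {p} M = O at *
  generalize piCoreOf {r} M = W at *
  have hTr := isPGroup_mono hWr hTW
  have hYs := h.solv_cent hT hT1 (solvable_of_isPGroup hTr)
  obtain ⟨K, h1, hKi, h3⟩ := h.exists_hall {p, r} (h.iv_top.inf_cent hT.2) hYs
  have hK : ∀ B, Iv A G B → IsPiSubgroup {p, r} B → B ≤ 𝐂(T) → B ≤ K := fun B b1 b2 b3 =>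
    h3 B (le_inf b1.1 b3) b1.2 b2
  have hKT : K ≤ 𝐂(T) := h1.1.trans inf_le_right
  have hKs := solvable_mono hYs h1.1
  have hOK : O ≤ K := hK O hOi (pp hOp) (hOW.trans (cent_anti hTW))
  have hCi := hWi.inf_cent hT.2
  have hCK : W ⊓ 𝐂(T) ≤ K := hK _ hCi (pr (isPGroup_mono hWr inf_le_left)) inf_le_right
  have hZi := hWi.inf_cent hWi.2
  have hZr : IsPGroup r (W ⊓ 𝐂(W) : Subgroup X) := isPGroup_mono hWr inf_le_left
  have hZK : W ⊓ 𝐂(W) ≤ K := (inf_le_inf_left _ (cent_anti hTW)).trans hCK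
  have hZ1 : W ⊓ 𝐂(W) ≠ ⊥ :=
    Core.inf_centralizer_ne_bot_of_isPGroup hWr hWr le_normalizer (ne_bot_mono hT1 hTW)
  have hMZ : M ≤ 𝐍(W ⊓ 𝐂(W)) := le_norm_inf_cent hMW hMW
  have hZO : W ⊓ 𝐂(W) ≤ 𝐂(O) := inf_le_left.trans (le_cent_symm hOW)
  have hZW : W ⊓ 𝐂(W) ≤ W := inf_le_left
  generalize W ⊓ 𝐂(W) = Z at *
  have hZM := fun B => h.le_mx (S := B) hM hZi hZ1 (solvable_of_isPGroup hZr) hMZ
  have hOM := fun B => h.le_mx (S := B) hM hOi hO (solvable_of_isPGroup hOp) hMO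
  have hUp := piCoreOf_isPGroup (p := p) K
  have hVr := piCoreOf_isPGroup (p := r) K
  have hKU := le_norm_piCoreOf {p} K
  have hKV := le_norm_piCoreOf {r} K
  have hUK := piCoreOf_le {p} K
  have hUi := hKi.pc {p}
  have hVi := hKi.pc {r}
  have s2 : O ≤ piCoreOf {p} K := by
    refine h.le_pc' hne hKi hKs (hall_pi h1) hOK hOp ?_
    refine Core.p_times_q hZr (cop_of_ne' hne hOp) hVr hZO (hZK.trans hKV) (hOK.trans hKV) ?_
    exact le_cent_of_le_of_disjoint inf_le_left le_rfl (hOK.trans hKV)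
      ((hZM _ (hVi.inf_cent hZi.2) (pr (isPGroup_mono hVr inf_le_left))
        (inf_le_right.trans (cent_le_norm _))).trans hMO) (inf_of_ne hne.symm hVr hOp)
  generalize piCoreOf {p} K = U at *
  have s3 : Z ≤ 𝐂(U) := by
    refine Core.p_times_q hOp (cop_of_ne' hne.symm hZr) hUp (le_cent_symm hZO) (hOK.trans hKU)
      (hZK.trans hKU) ?_
    exact le_cent_of_le_of_disjoint inf_le_left le_rfl (hZK.trans hKU)
      ((hOM _ (hUi.inf_cent hOi.2) (pp (isPGroup_mono hUp inf_le_left))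
        (inf_le_right.trans (cent_le_norm _))).trans hMZ) (inf_of_ne hne hUp hZr)
  have hUM : U ≤ M := hZM _ hUi (pp hUp) (le_norm_of_le_cent (le_cent_symm s3))
  have s4 : U ≤ 𝐂(W) := by
    refine Core.p_times_q hTr (cop_of_ne' hne hUp) hWr (le_cent_symm (hUK.trans hKT))
      (le_norm_of_le hTW) (hUM.trans hMW) ?_
    exact le_cent_of_le_of_disjoint inf_le_left le_rfl (hUM.trans hMW) (hCK.trans hKU)
      (inf_of_ne hne.symm hWr hUp)
  have e : U = O := le_antisymm (hb U hUM hUp s4) s2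
  exact (hK S hS hπ hST).trans (hOM K hKi (hall_pi h1) (e ▸ hKU))

theorem syl_le_mx (hP : IsSylowOf p P G) (hA : A ≤ 𝐍(P)) (hO : piCoreOf {p} M ≠ ⊥) : P ≤ M := by
  have pp : ∀ {B : Subgroup X}, IsPGroup p B → IsPiSubgroup {p, r} B := fun hB =>
    pi_of_isPGroup hB (by simp)
  have hMi := hM.1.1
  have hPi : Iv A G P := ⟨hP.1, hA⟩
  have hPp := sylow_isPGroup hP
  have hOp := piCoreOf_isPGroup (p := p) M
  have hWr := piCoreOf_isPGroup (p := r) M
  have hOi := hMi.pc {p}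
  have hWi := hMi.pc {r}
  have hMO := le_norm_piCoreOf {p} M
  have hMW := le_norm_piCoreOf {r} M
  have hb := fun B => h.le_pc' (S := B) hne hMi hMs hM.1.2
  have hOQ : piCoreOf {p} M ≤ P ⊓ M := le_inf (h.le_syl hP hA hOi hOp) (piCoreOf_le _ M)
  have hQi := hPi.inf hMi.2
  have hDi := hPi.inf_norm hQi.2
  -- it suffices to normalise `O`
  have fin : P ⊓ 𝐍(P ⊓ M) ≤ 𝐍(piCoreOf {p} M) → P ≤ M := fun h1 => by
    have h2 := h.le_mx hM hOi hO (solvable_of_isPGroup hOp) hMO hDi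
      (pp (isPGroup_mono hPp inf_le_left)) h1
    exact inf_eq_left.1 (eq_of_inf_normalizer_le_of_nilpotent (nilpotent_of_isPGroup hPp)
      inf_le_left (le_inf inf_le_left h2))
  by_cases hc : P ⊓ M ≤ 𝐂(piCoreOf {r} M)
  · refine fin ?_
    rw [le_antisymm hOQ (hb _ inf_le_right (isPGroup_mono hPp inf_le_left) hc)]
    exact inf_le_right
  have hW : piCoreOf {r} M ≠ ⊥ := fun e => hc (by rw [e, cent_bot]; exact le_top)
  have hM' : Mx {r, p} A G M := by rwa [Set.pair_comm]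
  have k1 : ∀ L, Ln q A L → piCoreOf {r} M ⊓ 𝐂(L) ≠ ⊥ → P ⊓ 𝐂(L) ≤ M := fun L hL h1 =>
    h.cent_le_mx hne hM hMs hO (h.ivL hWi hL) h1 inf_le_left (h.ivL hPi hL)
      (pp (isPGroup_mono hPp inf_le_left)) (h.cent hL (inf_le_left.trans hP.1) inf_le_right
        (inf_le_left.trans hWi.1) inf_le_right)
  have k2 : ∀ L, Ln q A L → piCoreOf {p} M ⊓ 𝐂(L) ≠ ⊥ → P ⊓ 𝐂(L) ≤ M := fun L hL h1 =>
    h.cent_le_mx hne.symm hM' hMs hW (h.ivL hOi hL) h1 inf_le_left (h.ivL hPi hL)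
      (pi_of_isPGroup (isPGroup_mono hPp inf_le_left) (by simp))
      (h.cent hL (inf_le_left.trans hP.1) inf_le_right (inf_le_left.trans hOi.1) inf_le_right)
  generalize piCoreOf {p} M = O at *
  generalize piCoreOf {r} M = W at *
  obtain ⟨J, hJ, hJc⟩ : ∃ J, Ln q A J ∧ ¬ P ⊓ M ⊓ 𝐂(J) ≤ 𝐂(W) := by
    by_contra h1
    push Not at h1
    exact hc (h.gen hQi h1)
  have k3 : ∀ L, Ln q A L → L ≠ J → P ⊓ 𝐂(L) ≤ M := fun L hL h1 => k1 L hL fun h2 =>
    hJc (h.l1 hJ hL h1.symm hWi (h.ivL hQi hJ) inf_le_right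
      ((inf_le_left.trans inf_le_right).trans hMW)
      (cop_of_ne hne.symm hWr (isPGroup_mono hPp (inf_le_left.trans inf_le_left))) h2)
  by_cases hJM : P ⊓ 𝐂(J) ≤ M
  · refine h.gen hPi fun L hL => ?_
    by_cases e : L = J
    · exact e ▸ hJM
    · exact k3 L hL e
  have hWJ : W ⊓ 𝐂(J) = ⊥ := by_contra fun h1 => hJM (k1 J hJ h1)
  have hOJ : O ⊓ 𝐂(J) = ⊥ := by_contra fun h1 => hJM (k2 J hJ h1)
  have k4 : ∀ L, Ln q A L → L ≠ J → P ⊓ 𝐂(L) ≤ O := fun L hL h1 =>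
    hb _ (k3 L hL h1) (isPGroup_mono hPp inf_le_left) (h.l1 hL hJ h1 hWi (h.ivL hPi hL)
      inf_le_right ((k3 L hL h1).trans hMW)
      (cop_of_ne hne.symm hWr (isPGroup_mono hPp inf_le_left)) hWJ)
  have hJO : J ≤ 𝐍(O) := hJ.1.trans hOi.2
  have e : ⁅P ⊓ M, J⁆ = O := by
    apply le_antisymm
    · have h1 : P ⊓ M ≤ O ⊔ P ⊓ M ⊓ 𝐂(J) := h.gen hQi fun L hL => by
        by_cases e : L = J
        · exact e ▸ le_sup_right
        · exact ((inf_le_inf_right _ inf_le_left).trans (k4 L hL e)).trans le_sup_left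
      refine (commutator_mono h1 le_rfl).trans (comm_sup_left_le (sup_le le_normalizer
        ((inf_le_left.trans inf_le_right).trans hMO)) (comm_le_left hJO) ?_)
      rw [le_cent_iff_comm_eq_bot.1 inf_le_right]
      exact bot_le
    · have h1 := coprime_comm_sup_cent hJO (h.copL hOi.1 hJ) (Or.inr (solvable_of_isPGroup hOp))
      rw [hOJ, sup_bot_eq] at h1
      exact h1.ge.trans (commutator_mono hOQ le_rfl)
  refine fin (h.gen hDi fun L hL => ?_)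
  by_cases e' : L = J
  · rw [← e, e']
    exact le_norm_comm (inf_le_left.trans inf_le_right) (inf_le_right.trans (cent_le_norm J))
  · exact le_norm_of_le ((inf_le_inf_right _ inf_le_left).trans (k4 L hL e'))

end Min

end Cfsg.Agent.Mart
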