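import Mathlib
import Cfsg.Agent.Mart.Max

/-!
# Two invariant Sylow subgroups that do not permute
-/

set_option autoImplicit false
set_option linter.unusedSectionVars false

namespace Cfsg.Agent.Mart

open Cfsg Cfsg.Agent.BG Cfsg.Agent.BG.Amb Subgroup

universe u

variable {X : Type u} [Group X] [Finite X] {q : ℕ} {A G : Subgroup X}

/-- Invariant Sylow subgroups which do not generate a `{p, r}`-group. -/
structure Pr (q : ℕ) (A G : Subgroup X) (p r : ℕ) (P R : Subgroup X) : Prop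
    extends Min q A G where
  ne : p ≠ r
  sP : IsSylowOf p P G
  nP : A ≤ 𝐍(P)
  sR : IsSylowOf r R G
  nR : A ≤ 𝐍(R)
  np : ¬ IsPiSubgroup {p, r} (P ⊔ R)

namespace Pr

variable {p r : ℕ} [hp : Fact p.Prime] [hr : Fact r.Prime] {P R M S T L : Subgroup X}
  (h : Pr q A G p r P R)
include h

theorem symm : Pr q A G r p R P :=
  ⟨h.toMin, h.ne.symm, h.sR, h.nR, h.sP, h.nP, by rw [Set.pair_comm, sup_comm]; exact h.np⟩

theorem iP : Iv A G P := ⟨h.sP.1, h.nP⟩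

theorem iR : Iv A G R := ⟨h.sR.1, h.nR⟩

theorem pP : IsPGroup p P := sylow_isPGroup h.sP

theorem pR : IsPGroup r R := sylow_isPGroup h.sR

theorem piP (hS : S ≤ P) : IsPiSubgroup {p, r} S :=
  pi_of_isPGroup (isPGroup_mono h.pP hS) (by simp)

theorem piR (hS : S ≤ R) : IsPiSubgroup {p, r} S :=
  pi_of_isPGroup (isPGroup_mono h.pR hS) (by simp)

theorem mx_solv (hM : Mx {p, r} A G M) : Group.IsSolvable M :=
  h.proper M hM.1.1 fun e => h.np (pi_mono hM.1.2 (e ▸ sup_le h.sP.1 h.sR.1))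

theorem d1 (hM : Mx {p, r} A G M) (hW : piCoreOf {r} M = ⊥) : M ≤ 𝐍(P) ∨ P ⊓ M = ⊥ := by
  have h1 : P ⊓ M ≤ piCoreOf {p} M := h.le_pc' h.ne hM.1.1 (h.mx_solv hM) hM.1.2 inf_le_right
    (isPGroup_mono h.pP inf_le_left) (by rw [hW, cent_bot]; exact le_top)
  by_cases hO : piCoreOf {p} M = ⊥
  · exact Or.inr (le_bot_iff.1 (hO ▸ h1))
  left
  have h2 := h.syl_le_mx h.ne hM (h.mx_solv hM) h.sP h.nP hO
  rw [← le_antisymm (h.le_syl h.sP h.nP (hM.1.1.pc {p}) (piCoreOf_isPGroup M))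
    ((le_inf le_rfl h2).trans h1)]
  exact le_norm_piCoreOf _ M

theorem dich {K : Subgroup X} (hK : Iv A G K) (hπ : IsPiSubgroup {p, r} K) (h1 : S ≤ P)
    (h2 : S ≤ K) (h3 : T ≤ R) (h4 : T ≤ K) : T ≤ 𝐍(P) ∨ S ≤ 𝐍(R) := by
  obtain ⟨M, hM, hKM⟩ := exists_mx hK hπ
  have hM' : Mx {r, p} A G M := by rwa [Set.pair_comm]
  by_cases hW : piCoreOf {r} M = ⊥
  · rcases h.d1 hM hW with h5 | h5
    · exact Or.inl ((h4.trans hKM).trans h5)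
    · exact Or.inr (((le_inf h1 (h2.trans hKM)).trans h5.le).trans bot_le)
  by_cases hO : piCoreOf {p} M = ⊥
  · rcases h.symm.d1 hM' hO with h5 | h5
    · exact Or.inr ((h2.trans hKM).trans h5)
    · exact Or.inl (((le_inf h3 (h4.trans hKM)).trans h5.le).trans bot_le)
  exact absurd (pi_mono hM.1.2 (sup_le (h.syl_le_mx h.ne hM (h.mx_solv hM) h.sP h.nP hO)
    (h.syl_le_mx h.ne.symm hM' (h.mx_solv hM) h.sR h.nR hW))) h.np

theorem c0 : R ⊓ 𝐂(P) = ⊥ := by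
  by_contra hne
  obtain ⟨M, hM, hle⟩ := exists_mx (π := {p, r}) (h.iP.sup (h.iR.inf_cent h.nP))
    (pi_sup (h.piP le_rfl) (h.piR inf_le_left) (inf_le_right.trans (cent_le_norm P)))
  have hM' : Mx {r, p} A G M := by rwa [Set.pair_comm]
  have h1 : R ⊓ 𝐂(P) ≤ piCoreOf {r} M := h.le_pc' h.ne.symm hM.1.1 (h.mx_solv hM) hM'.1.2
    (le_sup_right.trans hle) (isPGroup_mono h.pR inf_le_left) (inf_le_right.trans (cent_anti
      (h.le_syl h.sP h.nP (hM.1.1.pc {p}) (piCoreOf_isPGroup M))))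
  exact h.np (pi_mono hM.1.2 (sup_le (le_sup_left.trans hle)
    (h.syl_le_mx h.ne.symm hM' (h.mx_solv hM) h.sR h.nR (ne_bot_mono hne h1))))

theorem dichC (hT : Iv A G T) (h1 : T ≠ ⊥) (hTR : T ≤ R) :
    R ⊓ 𝐂(T) ≤ 𝐍(P) ∨ P ⊓ 𝐂(T) ≤ 𝐍(R) := by
  obtain ⟨K, k1, k2, k3⟩ := h.exists_hall {p, r} (h.iv_top.inf_cent hT.2)
    (h.solv_cent hT h1 (solvable_of_isPGroup (isPGroup_mono h.pR hTR)))
  exact h.dich k2 (hall_pi k1) inf_le_left (k3 _ (inf_le_inf_right _ h.sP.1)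
    (h.iP.inf_cent hT.2).2 (h.piP inf_le_left)) inf_le_left (k3 _ (inf_le_inf_right _ h.sR.1)
    (h.iR.inf_cent hT.2).2 (h.piR inf_le_left))

theorem dichL (hL : Ln q A L) : R ⊓ 𝐂(L) ≤ 𝐍(P) ∨ P ⊓ 𝐂(L) ≤ 𝐍(R) :=
  h.dich ((h.ivL h.iP hL).sup (h.ivL h.iR hL)) (pi_sup (h.piP inf_le_left) (h.piR inf_le_left)
    (le_norm_of_le_cent (h.cent hL (inf_le_left.trans h.sR.1) inf_le_right
      (inf_le_left.trans h.sP.1) inf_le_right))) inf_le_left le_sup_left inf_le_left le_sup_right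

theorem single (hne : R ⊓ 𝐍(P) ≠ ⊥) :
    ∃ J, Ln q A J ∧ R ⊓ 𝐍(P) ≤ 𝐂(J) ∧ ∀ L, Ln q A L → L ≠ J → P ⊓ 𝐂(L) ≠ ⊥ := by
  have hYi := h.iR.inf_norm h.nP
  have hYr : IsPGroup r (R ⊓ 𝐍(P) : Subgroup X) := isPGroup_mono h.pR inf_le_left
  obtain ⟨J, T, hJ, hT, hT1, hTY, hTC, hTJ, hPT⟩ : ∃ J T, Ln q A J ∧ Iv A G T ∧ T ≠ ⊥ ∧
      T ≤ R ⊓ 𝐍(P) ∧ T ≤ 𝐂(R ⊓ 𝐍(P)) ∧ T ≤ 𝐂(J) ∧ P ⊓ 𝐂(T) ≤ 𝐍(R) := by
    by_cases hZ : R ⊓ 𝐂(R) ≤ 𝐍(P)
    · have hZi := h.iR.inf_cent h.nR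
      obtain ⟨J, hJ, h1⟩ := h.exists_ln hZi (Core.inf_centralizer_ne_bot_of_isPGroup h.pR h.pR
        le_normalizer (ne_bot_mono hne inf_le_left))
      refine ⟨J, _, hJ, h.ivL hZi hJ, h1, inf_le_left.trans (le_inf inf_le_left hZ),
        (inf_le_left.trans inf_le_right).trans (cent_anti inf_le_left), inf_le_right, ?_⟩
      refine (h.dichC (h.ivL hZi hJ) h1 (inf_le_left.trans inf_le_left)).resolve_left fun h2 => ?_
      exact h.np (pi_sup (h.piP le_rfl) (h.piR le_rfl) (le_trans (le_inf le_rfl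
        (le_cent_symm (inf_le_left.trans inf_le_right))) h2))
    · have hZi := hYi.inf_cent hYi.2
      obtain ⟨J, hJ, h1⟩ := h.exists_ln hZi (Core.inf_centralizer_ne_bot_of_isPGroup hYr hYr
        le_normalizer hne)
      have h3 : R ⊓ 𝐍(P) ⊓ 𝐂(R ⊓ 𝐍(P)) ⊓ 𝐂(J) ≤ R := inf_le_left.trans (inf_le_left.trans inf_le_left)
      refine ⟨J, _, hJ, h.ivL hZi hJ, h1, inf_le_left.trans inf_le_left,
        inf_le_left.trans inf_le_right, inf_le_right, ?_⟩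
      refine (h.dichC (h.ivL hZi hJ) h1 h3).resolve_left fun h2 => hZ ?_
      exact (inf_le_inf_left _ (cent_anti h3)).trans h2
  have hTP : T ≤ 𝐍(P) := hTY.trans inf_le_right
  have hc : ∀ B, B ≤ R ⊓ 𝐍(P) → (Nat.card P).Coprime (Nat.card B) := fun B hB =>
    cop_of_ne h.ne h.pP (isPGroup_mono hYr hB)
  have h0 : ∀ B, B ≤ R ⊓ 𝐍(P) → B ≤ 𝐂(P) → B = ⊥ := fun B b1 b2 =>
    le_bot_iff.1 (h.c0 ▸ le_inf (b1.trans inf_le_left) b2)
  have hYJ : R ⊓ 𝐍(P) ≤ 𝐂(J) := by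
    refine h.gen hYi fun L hL => ?_
    by_cases e : L = J
    · exact e ▸ inf_le_right
    refine (h0 _ inf_le_left ?_).le.trans bot_le
    have h1 : R ⊓ 𝐍(P) ⊓ 𝐂(L) ≤ 𝐍(P) := inf_le_left.trans inf_le_right
    rw [← coprime_comm_sup_cent hTP (hc T hTY) (Or.inr (solvable_of_isPGroup h.pP))]
    nth_rewrite 1 [coprime_comm_sup_cent hTP (hc T hTY) (Or.inr (solvable_of_isPGroup h.pP))]
    refine le_cent_sup ?_ ?_
    · exact h.l2 hJ hL (Ne.symm e) h.iP (nilpotent_of_isPGroup h.pP) hT (h.ivL hYi hL) hTJ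
        inf_le_right hTP (le_norm_comm h1 (le_norm_of_le_cent (inf_le_left.trans
          (le_cent_symm hTC)))) (hc T hTY) (hc _ inf_le_left)
    · exact le_cent_of_le_of_disjoint (inf_le_left.trans inf_le_left) inf_le_left hPT h1
        (inf_of_ne h.ne.symm h.pR h.pP)
  exact ⟨J, hJ, hYJ, fun L hL e h1 => hne (h0 _ le_rfl (h.l1 hJ hL (Ne.symm e) h.iP hYi hYJ
    inf_le_right (hc _ le_rfl) h1))⟩

theorem false_of_ne (hne : R ⊓ 𝐍(P) ≠ ⊥) (h2 : ∀ J, Ln q A J → ¬ R ≤ 𝐂(J)) : False := by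
  obtain ⟨J, hJ, k1, k2⟩ := h.single hne
  have key : ∀ L, Ln q A L → L ≠ J → R ⊓ 𝐂(L) ≠ ⊥ → P ⊓ 𝐂(L) ≤ P ⊓ 𝐍(R) := fun L hL e h1 =>
    le_inf inf_le_left ((h.dichL hL).resolve_left fun h3 => h1 (h.disj hL hJ e
      (inf_le_left.trans h.sR.1) inf_le_right ((le_inf inf_le_left h3).trans k1)))
  obtain ⟨L, hL, e, h1⟩ : ∃ L, Ln q A L ∧ L ≠ J ∧ R ⊓ 𝐂(L) ≠ ⊥ := by
    by_contra hc
    push Not at hc
    refine h2 J hJ (h.gen h.iR fun L hL => ?_)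
    by_cases e : L = J
    · exact e ▸ inf_le_right
    · exact (hc L hL e).le.trans bot_le
  obtain ⟨J', hJ', k3, k4⟩ := h.symm.single (ne_bot_mono (k2 L hL e) (key L hL e h1))
  obtain ⟨N, hN, n1, n2⟩ := h.third hJ hJ'
  exact k2 N hN n1 (h.disj hN hJ' n2 (inf_le_left.trans h.sP.1) inf_le_right
    ((key N hN n1 (k4 N hN n2)).trans k3))

theorem false_of_common (hL : Ln q A L) (h1 : P ⊓ 𝐂(L) ≠ ⊥) (h2 : R ⊓ 𝐂(L) ≠ ⊥)
    (h3 : ∀ J, Ln q A J → ¬ P ≤ 𝐂(J)) (h4 : ∀ J, Ln q A J → ¬ R ≤ 𝐂(J)) : False := by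
  rcases h.dichL hL with h5 | h5
  · exact h.false_of_ne (ne_bot_mono h2 (le_inf inf_le_left h5)) h4
  · exact h.symm.false_of_ne (ne_bot_mono h1 (le_inf inf_le_left h5)) h3

end Pr

end Cfsg.Agent.Mart
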