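import Mathlib
import Cfsg.Agent.Mart.Pair
import Cfsg.Agent.BG.T1_17
import Cfsg.Agent.FGS.Kegel
import Cfsg.Agent.S0021

/-!
# Coprime action of `Z_q × Z_q` with abelian centralisers: solvability
-/

set_option autoImplicit false
set_option linter.unusedSectionVars false

namespace Cfsg.Agent.Mart

open Cfsg Cfsg.Agent.BG Cfsg.Agent.BG.Amb Cfsg.Agent.BG.QuoApi Subgroup
open scoped Pointwise

universe u

section

variable {X : Type u} [Group X] [Finite X] {q : ℕ} {A G : Subgroup X}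

/-- All lines but one have fixed points on `P`. -/
def Big (q : ℕ) (A P : Subgroup X) : Prop :=
  ∃ J, Ln q A J ∧ ∀ L, Ln q A L → L ≠ J → P ⊓ 𝐂(L) ≠ ⊥

variable {p : ℕ} [hp : Fact p.Prime] {P K N : Subgroup X}

theorem npc_of (hN : N ≤ K) (hn : K ≤ 𝐍(N)) (hπ : IsPiSubgroup {p}ᶜ N) (hP : IsPGroup p P)
    (hPK : P ≤ K) (h : K ≤ N ⊔ P) : HasNormalPComplement p K := by
  have := normal_subgroupOf hn
  refine Transfer.hasNormalPComplement_of_normal (N.subgroupOf K) ?_ ?_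
  · rw [Nat.card_congr (subgroupOfEquivOfLe hN).toEquiv]
    exact (pi_compl_singleton hp.out).1 hπ
  · refine IsPGroup.of_equiv ?_ (quoEquiv hn).symm
    refine isPGroup_mono (isPGroup_quo hP N) ((quo_mono h).trans ?_)
    rw [quo_self_sup (hPK.trans hn)]

theorem Hyp.exists_compl (h : Hyp q A G) (hP : Iv A G P) (hb : ¬ Big q A P) (hK : Iv A G K)
    (hs : Group.IsSolvable K) (hPK : IsSylowOf p P K) :
    ∃ H, H ≤ K ∧ IsPiSubgroup {p}ᶜ H ∧ H ≤ 𝐂(P) ∧ K ⊓ 𝐍(P) ≤ P ⊔ H := by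
  obtain ⟨H, h1, h2, -⟩ := h.exists_hall {p}ᶜ (hK.inf_norm hP.2) (solvable_mono hs inf_le_left)
  refine ⟨H, h1.1.trans inf_le_left, hall_pi h1, h.gen h2 fun J hJ => ?_, (hall_sup_hall
    (hall_of_le hPK (le_inf hPK.1 le_normalizer) inf_le_left) h1).ge⟩
  obtain ⟨L, hL, e, h3⟩ : ∃ L, Ln q A L ∧ L ≠ J ∧ P ⊓ 𝐂(L) = ⊥ := by
    by_contra hc
    push Not at hc
    exact hb ⟨J, hJ, hc⟩
  exact h.l1 hJ hL e.symm hP (h.ivL h2 hJ) inf_le_right
    (inf_le_left.trans (h1.1.trans inf_le_right))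
    (pi_coprime (hall_pi hPK) (pi_mono (hall_pi h1) inf_le_left)) h3

namespace Min

variable (h : Min q A G) (hP : IsSylowOf p P G) (hA : A ≤ 𝐍(P)) (h1 : P ≠ ⊥)
include h hP h1

theorem no_compl : ¬ IsPiHallOf {p}ᶜ (piCoreOf {p}ᶜ G) G := fun h2 => by
  rcases h.simple _ (h.iv_top.pc {p}ᶜ) (le_norm_piCoreOf _ G) with h3 | h3
  · rw [hall_eq_bot_iff h2, compl_compl] at h3
    exact h.nsolv (solvable_of_isPGroup (isPGroup_of_pi h3))
  · exact h1 (pi_eq_bot (hall_pi hP) (pi_mono (h3 ▸ piCoreOf_pi {p}ᶜ G) hP.1))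

include hA

theorem two {J : Subgroup X} (hJ : Ln q A J) : ¬ P ≤ 𝐂(J) := fun h2 => by
  have hPi : Iv A G P := ⟨hP.1, hA⟩
  have hb : ¬ Big q A P := by
    rintro ⟨J', hJ', h3⟩
    obtain ⟨L, hL, l1, l2⟩ := h.third hJ hJ'
    exact h3 L hL l2 (h.disj hL hJ l1 (inf_le_left.trans hP.1) inf_le_right (inf_le_left.trans h2))
  obtain ⟨H, -, -, k3, k4⟩ := h.exists_compl hPi hb (h.iv_top.inf_norm hA)
    (h.solv_norm hPi h1 (solvable_of_isPGroup (sylow_isPGroup hP)))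
    (hall_of_le hP (le_inf hP.1 le_normalizer) inf_le_left)
  refine h.no_compl hP h1 (burnside_normal_complement hp.out hP ?_)
  exact ((le_inf le_rfl inf_le_right).trans k4).trans (sup_le (h.cent hJ hP.1 h2 hP.1 h2) k3)

theorem big (h2 : p ≠ 2) : Big q A P := by
  by_contra hb
  have hPi : Iv A G P := ⟨hP.1, hA⟩
  have hPp := sylow_isPGroup hP
  refine h.no_compl hP h1 (isPiHallOf_piCoreOf_of_hasNormalPComplement hp.out
    (FGS.hasNormalPComplement_of_normalizers' h2 (isSylowOf_iff.1 hP) fun Y y1 y2 y3 => ?_))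
  have hYi : Iv A G Y := hPi.of_le y2 (hA.trans y3)
  have hKi := h.iv_top.inf_norm hYi.2
  have hKs := h.solv_norm hYi y1 (solvable_of_isPGroup (isPGroup_mono hPp y2))
  have hPK : IsSylowOf p P (G ⊓ 𝐍(Y)) :=
    hall_of_le hP (le_inf hP.1 (le_normalizer.trans y3)) inf_le_left
  generalize G ⊓ 𝐍(Y) = K at *
  obtain ⟨H, k1, k2, k3, k4⟩ := h.exists_compl hPi hb hKi hKs hPK
  have k5 : K ≤ piCoreOf {p}ᶜ K ⊔ (P ⊔ H) := (h.wd hKi hKs hPK).ge.trans (sup_le_sup_left k4 _)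
  have hE := le_norm_piCoreOf {p}ᶜ K
  refine npc_of (N := piCoreOf {p}ᶜ K ⊔ H) (sup_le (piCoreOf_le _ K) k1) (k5.trans ?_)
    (pi_sup (piCoreOf_pi _ K) k2 (k1.trans hE)) hPp hPK.1 (k5.trans ?_)
  · exact sup_le (le_norm_of_le le_sup_left) (sup_le (le_norm_sup (hPK.1.trans hE)
      (le_norm_of_le_cent (le_cent_symm k3))) (le_norm_of_le le_sup_right))
  · exact sup_le (le_sup_left.trans le_sup_left) (sup_le le_sup_right
      (le_sup_right.trans le_sup_left))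

omit h1 in
theorem pair {r : ℕ} [hr : Fact r.Prime] {R : Subgroup X} (hne : p ≠ r) (h2 : p ≠ 2)
    (hR : IsSylowOf r R G) (hB : A ≤ 𝐍(R)) : IsPiSubgroup {p, r} (P ⊔ R) := by
  by_contra hc
  have k : Pr q A G p r P R := ⟨h, hne, hP, hA, hR, hB, hc⟩
  have h1 : P ≠ ⊥ := by
    rintro rfl
    exact hc (by rw [bot_sup_eq]; exact k.piR le_rfl)
  have h3 : R ≠ ⊥ := by
    rintro rfl
    exact hc (by rw [sup_bot_eq]; exact k.piP le_rfl)
  obtain ⟨J, hJ, h4⟩ := h.big hP hA h1 h2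
  obtain ⟨L, hL, e, h5⟩ : ∃ L, Ln q A L ∧ L ≠ J ∧ R ⊓ 𝐂(L) ≠ ⊥ := by
    by_contra hc
    push Not at hc
    refine h.two hR hB h3 hJ (h.gen k.iR fun L hL => ?_)
    by_cases e : L = J
    · exact e ▸ inf_le_right
    · exact (hc L hL e).le.trans bot_le
  exact k.false_of_common hL (h4 L hL e) h5 (fun J hJ => h.two hP hA h1 hJ)
    fun J hJ => h.two hR hB h3 hJ

omit hP hA h1 hp in
theorem false : False := by
  have hex : ∀ p : Nat.Primes, ∃ S : Sylow (p : ℕ) G,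
      IsSylowOf p ((S : Subgroup G).map G.subtype) G ∧ A ≤ 𝐍((S : Subgroup G).map G.subtype) := by
    intro p
    have := Fact.mk p.2
    obtain ⟨P, h1, h2⟩ := coprime_sylow_exists p h.norm h.cop (Or.inl h.solv)
    obtain ⟨S, rfl⟩ := exists_sylow_of_isSylowOf h1
    exact ⟨S, h1, h2⟩
  choose S h1 h2 using hex
  refine h.nsolv (S0021.result S fun p r => ?_)
  by_cases e : p = r
  · rw [e]
  have hp := Fact.mk p.2
  have hr := Fact.mk r.2
  have hne : (p : ℕ) ≠ r := fun e' => e (Subtype.ext e')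
  have hπ : IsPiSubgroup {(p : ℕ), (r : ℕ)} ((S p : Subgroup G) ⊔ (S r : Subgroup G)) := by
    rw [← pi_map_subtype, Subgroup.map_sup]
    by_cases h3 : (p : ℕ) = 2
    · rw [Set.pair_comm, sup_comm]
      exact h.pair (h1 r) (h2 r) hne.symm (fun e' => hne (h3.trans e'.symm)) (h1 p) (h2 p)
    · exact h.pair (h1 p) (h2 p) hne h3 (h1 r) (h2 r)
  refine (H2.fac_of_coprime (L := (S p : Subgroup G) ⊔ (S r : Subgroup G)) le_sup_left
    le_sup_right (Nat.coprime_of_dvd fun s hs s1 s2 => ?_)).prm.coe_eq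
  rcases hπ s hs (s1.trans (relIndex_dvd_card _ _)) with rfl | rfl
  · exact (S p).not_dvd_index (s1.trans (relIndex_dvd_index_of_le le_sup_left))
  · exact (S r).not_dvd_index (s2.trans (relIndex_dvd_index_of_le le_sup_right))

end Min

end

theorem main {q : ℕ} (hq : q.Prime) (n : ℕ) : ∀ (X : Type u) [Group X] [Finite X]
    (A G : Subgroup X), Nat.card G = n → IsElementaryAbelian q A → Nat.card A = q ^ 2 →
    A ≤ 𝐍(G) → (Nat.card G).Coprime (Nat.card A) →
    (∀ L, Ln q A L → IsMulCommutative (G ⊓ 𝐂(L) : Subgroup X)) → Group.IsSolvable G := by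
  induction n using Nat.strong_induction_on with
  | _ n ih =>
  intro X _ _ A G hn hA hc hAG hcop hab
  have hsub : ∀ K, Iv A G K → K ≠ G → Group.IsSolvable K := fun K hK hne =>
    ih _ (hn ▸ Core.card_lt_of_lt (lt_of_le_of_ne hK.1 hne)) X A K rfl hA hc hK.2
      (Core.coprime_of_le_left hcop hK.1) fun L hL =>
        comm_mono (hab L hL) (inf_le_inf_right _ hK.1)
  by_cases hs : ∀ N, Iv A G N → G ≤ 𝐍(N) → N = ⊥ ∨ N = G
  · by_contra hns
    have h0 : Hyp q A ⊥ := ⟨hq, hA, hc, le_norm_bot, bot_inf_eq _, fun L _ => by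
      rw [bot_inf_eq]; infer_instance⟩
    have h1 : G ≤ 𝐂(G ⊓ 𝐂(A)) :=
      Core.le_of_centralizers hA.1 h0.not_cyclic hAG hcop.symm fun a ha h1 => by
        have := hab _ (h0.ln_zpowers ha h1)
        rw [cent_zpowers] at this
        exact le_cent_of_comm this le_rfl (inf_le_inf_left _ (cent_le_cent1 ha))
    rcases hs (G ⊓ 𝐂(A)) ⟨inf_le_left, le_norm_inf_cent hAG le_normalizer⟩
      (le_norm_of_le_cent h1) with h2 | h2
    · exact Min.false ⟨⟨hq, hA, hc, hAG, h2, hab⟩, hs, hsub, hns⟩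
    · rw [h2] at h1
      exact hns (solvable_of_comm (comm_of_le_cent h1))
  push Not at hs
  obtain ⟨N, hN, hGN, h1, h2⟩ := hs
  have hNs := hsub N hN h2
  have hcN := Core.coprime_of_le_left hcop hN.1
  have hd : ∀ L, L ≤ A → L ⊓ N = ⊥ := fun L hL =>
    disjoint_iff.1 (Core.disjoint_of_coprime (Core.coprime_of_le_right hcN hL).symm)
  refine solvable_of_quo hGN hNs (ih _ ?_ _ (quo N A) (quo N G) rfl (elem_quo hA N)
    (by rw [card_quo_of_disjoint hN.2 (hd A le_rfl), hc]) (quo_le_normalizer hAG)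
    (coprime_quo hcop N) fun L' hL' => ?_)
  · rw [← hn, ← card_quo_mul_of_normalIn ⟨hN.1, hGN⟩]
    exact lt_mul_of_one_lt_right Nat.card_pos (N.one_lt_card_iff_ne_bot.2 h1)
  · have e : quo N (A ⊓ coquo N L') = L' := by
      rw [quo_inf_of_le_right _ (le_coquo L'), quo_coquo, inf_eq_right.2 hL'.1]
    have hL : Ln q A (A ⊓ coquo N L') := ⟨inf_le_left, by
      rw [← card_quo_of_disjoint (inf_le_left.trans hN.2) (hd _ inf_le_left), e, hL'.2]⟩
    rw [← e, ← coprime_quo_cent (inf_le_left.trans hAG) (inf_le_left.trans hN.2)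
      (Core.coprime_of_le_right hcN inf_le_left) hNs]
    have := hab _ hL
    exact isMulCommutative_quo N

theorem solvable_of_action {A G : Type*} [Group A] [Finite A] [Group G] [Finite G]
    (φ : A →* MulAut G) {q : ℕ} (hq : q.Prime) (hA : Nat.card A = q ^ 2) (hnc : ¬ IsCyclic A)
    (hcop : ¬ q ∣ Nat.card G)
    (h : ∀ a : A, a ≠ 1 → ∀ x y : G, φ a x = x → φ a y = y → x * y = y * x) :
    Group.IsSolvable G := by
  have := Fact.mk hq
  have hc : IsMulCommutative A := IsPGroup.isMulCommutative_of_card_eq_prime_sq hA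
  have he : ∀ a : A, a ^ q = 1 := fun a => by
    obtain ⟨i, hi, e⟩ := (Nat.dvd_prime_pow hq).1 (hA ▸ orderOf_dvd_natCard a)
    refine orderOf_dvd_iff_pow_eq_one.1 ?_
    interval_cases i
    · simp [e]
    · simp [e]
    · exact absurd (isCyclic_of_orderOf_eq_card a (e.trans hA.symm)) hnc
  refine Core.solvable_of_mulEquiv (FGS.sdEquivG φ).symm (main hq _ _ (FGS.sdA φ) (FGS.sdG φ) rfl
    ?_ ((FGS.card_sdA φ).trans hA) le_normalizer_of_normal ?_ fun L hL => ?_)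
  · rw [FGS.sdA, MonoidHom.range_eq_map]
    exact Core.IsElementaryAbelian.map ⟨inferInstance, fun a _ => he a⟩ _
  · rw [FGS.card_sdA, FGS.card_sdG, hA]
    exact ((Nat.Prime.coprime_iff_not_dvd hq).2 hcop).symm.pow_right 2
  · obtain ⟨x, hx, hx1⟩ := exists_mem_ne_one (H := L) (by
      rintro rfl
      exact hq.one_lt.ne (by rw [← hL.2, card_bot]))
    obtain ⟨a, rfl⟩ := hL.1 hx
    refine comm_of_le_cent (le_cent_of_forall ?_)
    rintro _ ⟨⟨y, rfl⟩, hy⟩ _ ⟨⟨z, rfl⟩, hz⟩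
    rw [← map_mul, ← map_mul, h a (fun e => hx1 (by rw [e, map_one])) y z
      (FGS.inl_mem_centralizer_singleton_iff.1 (cent_le_cent1 hx hy))
      (FGS.inl_mem_centralizer_singleton_iff.1 (cent_le_cent1 hx hz))]

end Cfsg.Agent.Mart
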